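import Cfsg.Agent.H374.FR.POne
import Cfsg.Agent.H351.FR.XBox

/-!
# The parabolic subgroup of type `C₃` of `F₄(q)`, `q ≥ 9` odd, with helper351's count (S2452, plan F)
-/

set_option autoImplicit false

namespace Cfsg.Agent.H374.FR.Comm

open Cfsg.Lie Cfsg.Agent.ChevalleyStructure Module
open Cfsg.Agent.Nodes.RGDChev
open Cfsg.Agent.H520.FC (PK VK XT)

universe u

variable {K : Type u} [Field K] [Finite K] {W : Type*} [AddCommGroup W] [Module ℂ W] [FiniteDimensional ℂ W]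

/-- **All elements of the parabolic subgroup, only (Q1) left.** -/
theorem p1' (h2 : (2 : K) ≠ 0) (h9 : 9 ≤ Nat.card K) (ρ : Representation ℂ ↥(chevF4.group K) W) {r : ℝ} (hr : 0 ≤ r)
    (hQ : ∀ x ∈ VK K {k | k ≠ 3}, x ≠ 1 → ‖ρ.character x‖ ≤ r * finrank ℂ W)
    {g : ↥(chevF4.group K)} (hg1 : g ≠ 1) (hg : g ∈ PK K {k | k ≠ 3}) :
    ‖ρ.character g‖ ≤ (r + 1 / 27) * finrank ℂ W :=
  p1 h2 h9 ρ hr hQ hg1 hg fun h3 h4 => Cfsg.Agent.H351.FR.X.x_box h2 h3 h4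

end Cfsg.Agent.H374.FR.Comm
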