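import Cfsg.Agent.H520.FC.Defs
import Cfsg.Agent.H744.FC.Par

/-!
# `F₄(q)`: the parabolic subgroups containing a `p`-singular element (helper374, S2452, box (0))

* `par_grp` : `S ≠ 1` a `p`-subgroup: `N(S)` is in a conjugate of `P_{k ≠ i}` for some `i ≠ 3`, or `N(S) ≤ P^x`,
  `S ≤ V^x` for `P` the parabolic subgroup of type `C₃`;
* `par_cases` : the same for an element `g` with `p ∣ orderOf g`.
-/

set_option autoImplicit false
set_option linter.unusedSectionVars false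

namespace Cfsg.Agent.H374.FR

open Subgroup CoxeterSystem Cfsg.Agent.ChevalleyStructure.CoxeterGeom Cfsg.Agent.Tits.Roots Cfsg.Agent.Tits.Core
  Cfsg.Agent.Tits.Exchange Cfsg.Agent.Nodes.Reps Cfsg.Agent.Nodes.BNOf Cfsg.Agent.Nodes.StabComb
  Cfsg.Agent.Nodes.Bruhat Cfsg.Agent.Nodes.OppDec Cfsg.Agent.Nodes.LeviDec Cfsg.Agent.Nodes.NormX
  Cfsg.Agent.Nodes.Coroot Cfsg.Agent.Nodes.RGDChev Cfsg.Agent.KFacts.RgdPar Cfsg.Agent.KFacts.RgdTI
  Cfsg.Agent.KFacts.RgdCent Cfsg.Agent.KFacts.RgdChevCoord Cfsg.Agent.Nodes.ChevCls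
  Cfsg.Agent.KFacts.RgdBorelTits Cfsg.Agent.KFacts.RgdFilt
open Cfsg.Lie Cfsg.Agent.ChevalleyStructure Cfsg.Agent.ChevalleyStructure.Elts
  Cfsg.Agent.ChevalleyStructure.RootVec Cfsg.Agent.ChevalleyStructure.NPerm
  Cfsg.Agent.ChevalleyStructure.CoxeterGeomTypes
open Cfsg.Agent.H701.F43.Cent (hF cF nroots finW)
open Cfsg.Agent.H520.FC
open Cfsg.Agent.H744.FC (PK_mono)

universe u

variable {K : Type u} [Field K] [Finite K]

/-- **Borel–Tits for `F₄(q)`** with maximal parabolic subgroups. -/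
theorem par_grp {p : ℕ} [Fact p.Prime] [CharP K p] {S : Subgroup ↥(chevF4.group K)} (hS : IsPGroup p ↥S)
    (hS1 : S ≠ ⊥) :
    (∃ x : ↥(chevF4.group K), ∃ i : Fin 4, i ≠ 3 ∧
      normalizer (S : Set ↥(chevF4.group K)) ≤ cj x (PK K {k | k ≠ i})) ∨
    (∃ x : ↥(chevF4.group K), S ≤ cj x (VK K {k | k ≠ 3}) ∧
      normalizer (S : Set ↥(chevF4.group K)) ≤ cj x (PK K {k | k ≠ 3})) := by
  have hW := finite_W hF cF
  have hfin : Finite ↥(chevF4.group K) := inferInstance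
  have hFil := Cfsg.Agent.KFacts.RgdFiltChev.filt (K := K) hF cF p
  have hG := Cfsg.Agent.KFacts.RgdFilt.GG_eq_top (T := TT chevF4 K) (G1_eq_top hF (K := K) cF)
  obtain ⟨x, J, hJ, hle, hN⟩ := borel_tits hFil hG hS hS1
  by_cases h : ∃ i : Fin 4, i ≠ 3 ∧ i ∉ J
  · obtain ⟨i, hi3, hiJ⟩ := h
    left
    refine ⟨x, i, hi3, le_trans hN (cj_mono x (PK_mono fun k hk hki => ?_))⟩
    rw [hki] at hk
    exact hiJ hk
  · right
    push Not at h
    have hJ3 : J = {k | k ≠ 3} := by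
      ext k
      constructor
      · intro hk hk3
        apply hJ
        ext j
        simp only [Set.mem_univ, iff_true]
        by_cases hj : j = 3
        · rw [hj, ← hk3]; exact hk
        · exact h j hj
      · intro hk
        exact h k hk
    subst hJ3
    exact ⟨x, hle, hN⟩

theorem mem_normalizer_zpowers {G : Type*} [Group G] (g : G) (m : ℕ) : g ∈ normalizer (zpowers (g ^ m) : Set G) := by
  have h : g ∈ centralizer ((zpowers (g ^ m) : Subgroup G) : Set G) := by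
    rw [mem_centralizer_iff]
    rintro y ⟨n, rfl⟩
    exact (((Commute.refl g).pow_left m).zpow_left n).eq
  exact centralizer_le_normalizer _ h

/-- **A `p`-singular element** is in a conjugate of `P_{k ≠ i}`, `i ≠ 3`, or its `p`-part is in the unipotent radical of
a conjugate of the parabolic subgroup of type `C₃`. -/
theorem par_cases {p : ℕ} [hp : Fact p.Prime] [CharP K p] {g : ↥(chevF4.group K)} (hg : p ∣ orderOf g) :
    (∃ x : ↥(chevF4.group K), ∃ i : Fin 4, i ≠ 3 ∧ x * g * x⁻¹ ∈ PK K {k | k ≠ i}) ∨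
    (∃ x : ↥(chevF4.group K), x * g * x⁻¹ ∈ PK K {k | k ≠ 3} ∧
      ∀ n e : ℕ, (g ^ n) ^ p ^ e = 1 → x * g ^ n * x⁻¹ ∈ VK K {k | k ≠ 3}) := by
  have hfin : Finite ↥(chevF4.group K) := inferInstance
  have ho : orderOf g ≠ 0 := (orderOf_pos g).ne'
  set m := ordCompl[p] (orderOf g) with hm
  set a := (orderOf g).factorization p with ha
  have hma : p ^ a * m = orderOf g := Nat.ordProj_mul_ordCompl_eq_self _ _
  have hmp : Nat.Coprime m p := (Nat.coprime_ordCompl hp.out ho).symm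
  have hS : IsPGroup p ↥(zpowers (g ^ m)) := by
    rintro ⟨y, n, rfl⟩
    refine ⟨a, Subtype.ext ?_⟩
    show ((g ^ m) ^ n) ^ p ^ a = 1
    rw [← zpow_natCast, ← zpow_mul, mul_comm, zpow_mul, zpow_natCast, ← pow_mul, mul_comm m, hma, pow_orderOf_eq_one,
      one_zpow]
  have hS1 : zpowers (g ^ m) ≠ ⊥ := by
    rw [Ne, zpowers_eq_bot]
    intro h1
    have h2 : orderOf g ∣ m := orderOf_dvd_of_pow_eq_one h1
    have h3 : p ∣ m := dvd_trans hg h2
    have h4 : p ∣ 1 := by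
      rw [← hmp]
      exact Nat.dvd_gcd h3 dvd_rfl
    exact hp.out.one_lt.ne' (Nat.dvd_one.1 h4)
  have hgN := mem_normalizer_zpowers g m
  have key : ∀ {x y : ↥(chevF4.group K)} {H : Subgroup ↥(chevF4.group K)}, y ∈ cj x H → x⁻¹ * y * x⁻¹⁻¹ ∈ H := by
    intro x y H hy
    rw [inv_inv]
    exact mem_cj.1 hy
  rcases par_grp hS hS1 with ⟨x, i, hi, hN⟩ | ⟨x, hle, hN⟩
  · exact Or.inl ⟨x⁻¹, i, hi, key (hN hgN)⟩
  · refine Or.inr ⟨x⁻¹, key (hN hgN), fun n e hn => key (hle ?_)⟩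
    have h1 : orderOf g ∣ n * p ^ e := by
      apply orderOf_dvd_of_pow_eq_one
      rw [pow_mul]
      exact hn
    have h2 : m ∣ n := by
      have h3 : m ∣ n * p ^ e := dvd_trans ⟨p ^ a, by rw [mul_comm, hma]⟩ h1
      exact (Nat.Coprime.pow_right e hmp).dvd_of_dvd_mul_right h3
    obtain ⟨c, rfl⟩ := h2
    rw [pow_mul]
    exact pow_mem (mem_zpowers _) c

end Cfsg.Agent.H374.FR
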